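import Cfsg.Agent.H682.CT.Mult
import Cfsg.Agent.H51.Mult
import Cfsg.Agent.H67.PCov

/-!
# `NoExt` from the non-existence of covers of prime degree

* `noExt_of_noCov` : from `H51.Mult.NoCov p Q`;
* `noExt_of_noPCov` : from `H67.NoPCov p Q`;
* `noExt_quot` : from a perfect central extension with kernel of order prime to `p`.
-/

set_option autoImplicit false

namespace Cfsg.Agent.H682.CT

open Subgroup
open scoped commutatorElement

universe u v w

theorem noExt_of_noCov {p : ℕ} (hp : p.Prime) {Q : Type u} [Group Q] (hQ : commutator Q = ⊤)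
    (h : Cfsg.Agent.H51.Mult.NoCov p Q) : NoExt.{u, v} p Q := by
  have : Fact p.Prime := ⟨hp⟩
  refine noExt_of_stem hQ fun D _ _ σ hσ hz hD hpk => ?_
  have h1 := h.not_dvd hp (π := σ) ⟨hσ, hz, hD⟩
  obtain ⟨n, hn⟩ := IsPGroup.iff_card.1 hpk
  rcases Nat.eq_zero_or_pos n with rfl | hn0
  · rw [pow_zero] at hn
    exact Subgroup.card_eq_one.1 hn
  · exact absurd (by rw [hn]; exact dvd_pow_self p hn0.ne') h1

/-- a perfect central extension with kernel of order prime to `p` -/
theorem noExt_quot {p : ℕ} (hp : p.Prime) {Q : Type u} [Group Q] (hQ : commutator Q = ⊤) {G : Type w} [Group G]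
    [Finite G] (f : G →* Q) (hf : Function.Surjective f) (hk : ¬ p ∣ Nat.card f.ker)
    (h : ∀ (E : Type (max v w)) [Group E] [Finite E] (f : E →* G), Function.Surjective f → f.ker ≤ center E →
      IsPGroup p f.ker → f.ker ⊓ commutator E = ⊥) : NoExt.{u, v} p Q := by
  have : Fact p.Prime := ⟨hp⟩
  refine noExt_of_stem hQ fun D _ _ σ hσ hσz hD hpk => ?_
  -- the pullback
  let P : Subgroup (D × G) :=
    { carrier := {x | σ x.1 = f x.2}
      one_mem' := by simp
      mul_mem' := by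
        intro a b ha hb
        simp only [Set.mem_ofPred_eq, Prod.fst_mul, Prod.snd_mul, map_mul] at ha hb ⊢
        rw [ha, hb]
      inv_mem' := by
        intro a ha
        simp only [Set.mem_ofPred_eq, Prod.fst_inv, Prod.snd_inv, map_inv] at ha ⊢
        rw [ha] }
  have hPmem : ∀ x : D × G, x ∈ P ↔ σ x.1 = f x.2 := fun _ => Iff.rfl
  let π₂ : P →* G := (MonoidHom.snd D G).comp P.subtype
  let π₁ : P →* D := (MonoidHom.fst D G).comp P.subtype
  have h2 : Function.Surjective π₂ := by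
    intro g
    obtain ⟨d, hd⟩ := hσ (f g)
    exact ⟨⟨(d, g), hd⟩, rfl⟩
  have h1 : Function.Surjective π₁ := by
    intro d
    obtain ⟨g, hg⟩ := hf (σ d)
    exact ⟨⟨(d, g), hg.symm⟩, rfl⟩
  have hker : ∀ x : P, x ∈ π₂.ker → (x : D × G).2 = 1 ∧ (x : D × G).1 ∈ σ.ker := by
    intro x hx
    have h3 : (x : D × G).2 = 1 := hx
    refine ⟨h3, ?_⟩
    rw [MonoidHom.mem_ker, (hPmem _).1 x.2, h3, map_one]
  have hcen : π₂.ker ≤ center P := by
    intro x hx
    obtain ⟨h3, h4⟩ := hker x hx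
    rw [mem_center_iff]
    intro y
    apply Subtype.ext
    apply Prod.ext
    · exact mem_center_iff.1 (hσz h4) (y : D × G).1
    · change (y : D × G).2 * (x : D × G).2 = (x : D × G).2 * (y : D × G).2
      rw [h3, mul_one, one_mul]
  have hpg : IsPGroup p π₂.ker := by
    intro x
    obtain ⟨h3, h4⟩ := hker x.1 x.2
    obtain ⟨k, hk'⟩ := hpk ⟨_, h4⟩
    refine ⟨k, ?_⟩
    apply Subtype.ext
    apply Subtype.ext
    apply Prod.ext
    · have := congrArg Subtype.val hk'
      exact this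
    · change ((x.1 : D × G).2) ^ p ^ k = 1
      rw [h3, one_pow]
  have hb := h P π₂ h2 hcen hpg
  rw [eq_bot_iff]
  intro z hzk
  rw [mem_bot]
  have h3 : (commutator P).map π₁ = ⊤ := by
    rw [_root_.commutator_def P, Subgroup.map_commutator, ← MonoidHom.range_eq_map, MonoidHom.range_eq_top.2 h1,
      ← _root_.commutator_def, hD]
  obtain ⟨x, hx, hxz⟩ : z ∈ (commutator P).map π₁ := by rw [h3]; trivial
  have h4 : (x : D × G).1 = z := hxz
  have h5 : (x : D × G).2 ∈ f.ker := by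
    rw [MonoidHom.mem_ker, ← (hPmem _).1 x.2, h4]
    exact hzk
  set m := Nat.card f.ker with hm
  have h6 : (x : D × G).2 ^ m = 1 := by
    have := pow_card_eq_one' (x := (⟨_, h5⟩ : f.ker))
    exact congrArg Subtype.val this
  have h7 : x ^ m ∈ π₂.ker ⊓ commutator P := mem_inf.2 ⟨h6, pow_mem hx m⟩
  rw [hb, mem_bot] at h7
  have h8 : z ^ m = 1 := by
    have := congrArg (fun t : P => (t : D × G).1) h7
    rw [← h4]
    exact this
  obtain ⟨k, hk'⟩ := hpk ⟨z, hzk⟩
  have h9 : z ^ p ^ k = 1 := congrArg Subtype.val hk'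
  have h10 : Nat.Coprime m (p ^ k) := ((Nat.Prime.coprime_iff_not_dvd hp).2 hk).symm.pow_right k
  rw [← orderOf_eq_one_iff]
  exact Nat.eq_one_of_dvd_coprimes h10 (orderOf_dvd_of_pow_eq_one h8) (orderOf_dvd_of_pow_eq_one h9)

theorem noExt_of_noPCov {p : ℕ} (hp : p.Prime) {Q : Type u} [Group Q] (hQ : commutator Q = ⊤)
    (h : Cfsg.Agent.H67.NoPCov p Q) : NoExt.{u, v} p Q := by
  apply noExt_of_noCov hp hQ
  intro L _ _ π hπ hc
  have : Fact p.Prime := ⟨hp⟩
  have hcyc : IsCyclic π.ker := isCyclic_of_prime_card hc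
  obtain ⟨c, hcg⟩ := hcyc.exists_generator
  refine h L π c ?_
  have hker : ∀ x, π x = 1 ↔ x ∈ zpowers (c : L) := by
    intro x
    constructor
    · intro hx
      obtain ⟨k, hk⟩ := hcg ⟨x, hx⟩
      exact ⟨k, congrArg Subtype.val hk⟩
    · rintro ⟨k, rfl⟩
      exact (π.ker).zpow_mem c.2 k
  have hord : orderOf (c : L) = p := by
    rw [orderOf_coe, orderOf_eq_card_of_forall_mem_zpowers hcg, hc]
  refine ⟨?_, ?_, fun x => ?_, hπ.perf, hπ.surj, hker⟩
  · intro h1
    rw [h1, orderOf_one] at hord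
    exact hp.one_lt.ne hord
  · rw [← hord]
    exact pow_orderOf_eq_one _
  · exact (mem_center_iff.1 (hπ.cen c.2) x).symm

end Cfsg.Agent.H682.CT
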